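import Cfsg.Agent.H41.J2TC.Ku.RTab

set_option autoImplicit false
set_option linter.all false
set_option Elab.async false

namespace Cfsg.Agent.H41.J2P

open Cfsg.Agent.H35

theorem tku_rchk_20 : allR tku_rf 7173 8 (20 * 2 ^ 8) = true := by decide +kernel
theorem tku_rchk_21 : allR tku_rf 7173 8 (21 * 2 ^ 8) = true := by decide +kernel
theorem tku_rchk_22 : allR tku_rf 7173 8 (22 * 2 ^ 8) = true := by decide +kernel
theorem tku_rchk_23 : allR tku_rf 7173 8 (23 * 2 ^ 8) = true := by decide +kernel
theorem tku_rchk_24 : allR tku_rf 7173 8 (24 * 2 ^ 8) = true := by decide +kernel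
theorem tku_rchk_25 : allR tku_rf 7173 8 (25 * 2 ^ 8) = true := by decide +kernel
theorem tku_rchk_26 : allR tku_rf 7173 8 (26 * 2 ^ 8) = true := by decide +kernel
theorem tku_rchk_27 : allR tku_rf 7173 8 (27 * 2 ^ 8) = true := by decide +kernel
theorem tku_rchk_28 : allR tku_rf 7173 8 (28 * 2 ^ 8) = true := by decide +kernel

end Cfsg.Agent.H41.J2P
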