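import Cfsg.Agent.H41.J2TC.Ku.RChk0
import Cfsg.Agent.H41.J2TC.Ku.RChk1

set_option autoImplicit false
set_option linter.all false

namespace Cfsg.Agent.H41.J2P

open Cfsg.Agent.H35

theorem tku_rall : ∀ p, p < 7173 → tku_rf p = true := by
  apply allR_blocks tku_rf 7173 8 29 _ (by decide)
  intro k hk
  interval_cases k
  · exact tku_rchk_0
  · exact tku_rchk_1
  · exact tku_rchk_2
  · exact tku_rchk_3
  · exact tku_rchk_4
  · exact tku_rchk_5
  · exact tku_rchk_6
  · exact tku_rchk_7
  · exact tku_rchk_8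
  · exact tku_rchk_9
  · exact tku_rchk_10
  · exact tku_rchk_11
  · exact tku_rchk_12
  · exact tku_rchk_13
  · exact tku_rchk_14
  · exact tku_rchk_15
  · exact tku_rchk_16
  · exact tku_rchk_17
  · exact tku_rchk_18
  · exact tku_rchk_19
  · exact tku_rchk_20
  · exact tku_rchk_21
  · exact tku_rchk_22
  · exact tku_rchk_23
  · exact tku_rchk_24
  · exact tku_rchk_25
  · exact tku_rchk_26
  · exact tku_rchk_27
  · exact tku_rchk_28

theorem tku_circ_ok : circChk (fullW ku_rws ku_prels) tku_circT 0 tku_ccert = true := by decide +kernel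
theorem tku_hc_ok : allR (fun c => hcChk tku_rsw tku_hc1T tku_hc2T c) 2 1 0 = true := by decide +kernel
theorem tku_h0 : RData.aord (tku_rd.ent 0 1) = 0 := by decide +kernel

end Cfsg.Agent.H41.J2P
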